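import Mathlib
import Cfsg.Agent.Lib.Helper56.TC
import Cfsg.Agent.Lib.Helper56.Fi24U9.D
set_option autoImplicit false
set_option maxRecDepth 1000000

namespace Cfsg.Agent.Lib.Helper56.Fi24U9

open Cfsg.Agent.Lib.Helper56.TC Cfsg.Agent.Lib.Helper56.TC.Tabs

theorem cN_0 : allRange (fun x => forceN T.chkName x) 0 456 = true := by decide +kernel
theorem cN_456 : allRange (fun x => forceN T.chkName x) 456 459 = true := by decide +kernel
theorem cN_915 : allRange (fun x => forceN T.chkName x) 915 463 = true := by decide +kernel
theorem cN_1378 : allRange (fun x => forceN T.chkName x) 1378 463 = true := by decide +kernel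
theorem cN_1841 : allRange (fun x => forceN T.chkName x) 1841 462 = true := by decide +kernel
theorem cN_2303 : allRange (fun x => forceN T.chkName x) 2303 463 = true := by decide +kernel
theorem cN_2766 : allRange (fun x => forceN T.chkName x) 2766 468 = true := by decide +kernel
theorem cN_3234 : allRange (fun x => forceN T.chkName x) 3234 465 = true := by decide +kernel
theorem cN_3699 : allRange (fun x => forceN T.chkName x) 3699 466 = true := by decide +kernel
theorem cN_4165 : allRange (fun x => forceN T.chkName x) 4165 467 = true := by decide +kernel
theorem cN_4632 : allRange (fun x => forceN T.chkName x) 4632 469 = true := by decide +kernel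
theorem cN_5101 : allRange (fun x => forceN T.chkName x) 5101 467 = true := by decide +kernel

end Cfsg.Agent.Lib.Helper56.Fi24U9
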