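import Mathlib
import Cfsg.Agent.Lib.Helper56.TC
import Cfsg.Agent.Lib.Helper56.Fi24U9.D
set_option autoImplicit false
set_option maxRecDepth 1000000

namespace Cfsg.Agent.Lib.Helper56.Fi24U9

open Cfsg.Agent.Lib.Helper56.TC Cfsg.Agent.Lib.Helper56.TC.Tabs

theorem cN_5568 : allRange (fun x => forceN T.chkName x) 5568 469 = true := by decide +kernel
theorem cN_6037 : allRange (fun x => forceN T.chkName x) 6037 463 = true := by decide +kernel
theorem cN_6500 : allRange (fun x => forceN T.chkName x) 6500 470 = true := by decide +kernel
theorem cN_6970 : allRange (fun x => forceN T.chkName x) 6970 470 = true := by decide +kernel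
theorem cN_7440 : allRange (fun x => forceN T.chkName x) 7440 464 = true := by decide +kernel
theorem cN_7904 : allRange (fun x => forceN T.chkName x) 7904 471 = true := by decide +kernel
theorem cN_8375 : allRange (fun x => forceN T.chkName x) 8375 470 = true := by decide +kernel
theorem cN_8845 : allRange (fun x => forceN T.chkName x) 8845 467 = true := by decide +kernel
theorem cN_9312 : allRange (fun x => forceN T.chkName x) 9312 469 = true := by decide +kernel
theorem cN_9781 : allRange (fun x => forceN T.chkName x) 9781 469 = true := by decide +kernel
theorem cN_10250 : allRange (fun x => forceN T.chkName x) 10250 471 = true := by decide +kernel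
theorem cN_10721 : allRange (fun x => forceN T.chkName x) 10721 465 = true := by decide +kernel

end Cfsg.Agent.Lib.Helper56.Fi24U9
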