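import Mathlib
import Cfsg.Agent.Lib.Helper56.TC
import Cfsg.Agent.Lib.Helper56.Fi24U9.D
set_option autoImplicit false
set_option maxRecDepth 1000000

namespace Cfsg.Agent.Lib.Helper56.Fi24U9

open Cfsg.Agent.Lib.Helper56.TC Cfsg.Agent.Lib.Helper56.TC.Tabs

theorem cV_21105 : allRange (fun x => forceN T.chkV x) 21105 469 = true := by decide +kernel
theorem cV_21574 : allRange (fun x => forceN T.chkV x) 21574 469 = true := by decide +kernel
theorem cV_22043 : allRange (fun x => forceN T.chkV x) 22043 469 = true := by decide +kernel
theorem cV_22512 : allRange (fun x => forceN T.chkV x) 22512 469 = true := by decide +kernel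
theorem cV_22981 : allRange (fun x => forceN T.chkV x) 22981 469 = true := by decide +kernel
theorem cV_23450 : allRange (fun x => forceN T.chkV x) 23450 469 = true := by decide +kernel
theorem cV_23919 : allRange (fun x => forceN T.chkV x) 23919 469 = true := by decide +kernel
theorem cV_24388 : allRange (fun x => forceN T.chkV x) 24388 469 = true := by decide +kernel
theorem cV_24857 : allRange (fun x => forceN T.chkV x) 24857 469 = true := by decide +kernel
theorem cV_25326 : allRange (fun x => forceN T.chkV x) 25326 469 = true := by decide +kernel
theorem cV_25795 : allRange (fun x => forceN T.chkV x) 25795 469 = true := by decide +kernel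
theorem cV_26264 : allRange (fun x => forceN T.chkV x) 26264 469 = true := by decide +kernel

end Cfsg.Agent.Lib.Helper56.Fi24U9
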