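import Mathlib
import Cfsg.Agent.Lib.Helper56.TC
import Cfsg.Agent.Lib.Helper56.Fi24U9.D
set_option autoImplicit false
set_option maxRecDepth 1000000

namespace Cfsg.Agent.Lib.Helper56.Fi24U9

open Cfsg.Agent.Lib.Helper56.TC Cfsg.Agent.Lib.Helper56.TC.Tabs

theorem cV_26733 : allRange (fun x => forceN T.chkV x) 26733 469 = true := by decide +kernel
theorem cV_27202 : allRange (fun x => forceN T.chkV x) 27202 469 = true := by decide +kernel
theorem cV_27671 : allRange (fun x => forceN T.chkV x) 27671 469 = true := by decide +kernel
theorem cV_28140 : allRange (fun x => forceN T.chkV x) 28140 291 = true := by decide +kernel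

end Cfsg.Agent.Lib.Helper56.Fi24U9
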