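import Mathlib
import Cfsg.Agent.Lib.Helper56.TC
import Cfsg.Agent.Lib.Helper56.Fi24U9.D
set_option autoImplicit false
set_option maxRecDepth 1000000

namespace Cfsg.Agent.Lib.Helper56.Fi24U9

open Cfsg.Agent.Lib.Helper56.TC Cfsg.Agent.Lib.Helper56.TC.Tabs

theorem cN_11186 : allRange (fun x => forceN T.chkName x) 11186 472 = true := by decide +kernel
theorem cN_11658 : allRange (fun x => forceN T.chkName x) 11658 469 = true := by decide +kernel
theorem cN_12127 : allRange (fun x => forceN T.chkName x) 12127 469 = true := by decide +kernel
theorem cN_12596 : allRange (fun x => forceN T.chkName x) 12596 462 = true := by decide +kernel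
theorem cN_13058 : allRange (fun x => forceN T.chkName x) 13058 463 = true := by decide +kernel
theorem cN_13521 : allRange (fun x => forceN T.chkName x) 13521 472 = true := by decide +kernel
theorem cN_13993 : allRange (fun x => forceN T.chkName x) 13993 467 = true := by decide +kernel
theorem cN_14460 : allRange (fun x => forceN T.chkName x) 14460 464 = true := by decide +kernel
theorem cN_14924 : allRange (fun x => forceN T.chkName x) 14924 464 = true := by decide +kernel
theorem cN_15388 : allRange (fun x => forceN T.chkName x) 15388 476 = true := by decide +kernel
theorem cN_15864 : allRange (fun x => forceN T.chkName x) 15864 466 = true := by decide +kernel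
theorem cN_16330 : allRange (fun x => forceN T.chkName x) 16330 466 = true := by decide +kernel

end Cfsg.Agent.Lib.Helper56.Fi24U9
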