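import Mathlib
import Cfsg.Agent.Lib.Helper56.TC
import Cfsg.Agent.Lib.Helper56.Fi24U9.D
set_option autoImplicit false
set_option maxRecDepth 1000000

namespace Cfsg.Agent.Lib.Helper56.Fi24U9

open Cfsg.Agent.Lib.Helper56.TC Cfsg.Agent.Lib.Helper56.TC.Tabs

theorem cN_16796 : allRange (fun x => forceN T.chkName x) 16796 466 = true := by decide +kernel
theorem cN_17262 : allRange (fun x => forceN T.chkName x) 17262 478 = true := by decide +kernel
theorem cN_17740 : allRange (fun x => forceN T.chkName x) 17740 466 = true := by decide +kernel
theorem cN_18206 : allRange (fun x => forceN T.chkName x) 18206 463 = true := by decide +kernel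
theorem cN_18669 : allRange (fun x => forceN T.chkName x) 18669 474 = true := by decide +kernel
theorem cN_19143 : allRange (fun x => forceN T.chkName x) 19143 479 = true := by decide +kernel
theorem cN_19622 : allRange (fun x => forceN T.chkName x) 19622 463 = true := by decide +kernel
theorem cN_20085 : allRange (fun x => forceN T.chkName x) 20085 463 = true := by decide +kernel
theorem cN_20548 : allRange (fun x => forceN T.chkName x) 20548 486 = true := by decide +kernel
theorem cN_21034 : allRange (fun x => forceN T.chkName x) 21034 467 = true := by decide +kernel
theorem cN_21501 : allRange (fun x => forceN T.chkName x) 21501 462 = true := by decide +kernel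
theorem cN_21963 : allRange (fun x => forceN T.chkName x) 21963 487 = true := by decide +kernel

end Cfsg.Agent.Lib.Helper56.Fi24U9
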