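import Mathlib
import Cfsg.Agent.Lib.Helper56.TC
import Cfsg.Agent.Lib.Helper56.Fi24U9.D
set_option autoImplicit false
set_option maxRecDepth 1000000

namespace Cfsg.Agent.Lib.Helper56.Fi24U9

open Cfsg.Agent.Lib.Helper56.TC Cfsg.Agent.Lib.Helper56.TC.Tabs

theorem cN_22450 : allRange (fun x => forceN T.chkName x) 22450 465 = true := by decide +kernel
theorem cN_22915 : allRange (fun x => forceN T.chkName x) 22915 475 = true := by decide +kernel
theorem cN_23390 : allRange (fun x => forceN T.chkName x) 23390 475 = true := by decide +kernel
theorem cN_23865 : allRange (fun x => forceN T.chkName x) 23865 461 = true := by decide +kernel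
theorem cN_24326 : allRange (fun x => forceN T.chkName x) 24326 486 = true := by decide +kernel
theorem cN_24812 : allRange (fun x => forceN T.chkName x) 24812 457 = true := by decide +kernel
theorem cN_25269 : allRange (fun x => forceN T.chkName x) 25269 487 = true := by decide +kernel
theorem cN_25756 : allRange (fun x => forceN T.chkName x) 25756 461 = true := by decide +kernel
theorem cN_26217 : allRange (fun x => forceN T.chkName x) 26217 484 = true := by decide +kernel
theorem cN_26701 : allRange (fun x => forceN T.chkName x) 26701 467 = true := by decide +kernel
theorem cN_27168 : allRange (fun x => forceN T.chkName x) 27168 472 = true := by decide +kernel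
theorem cN_27640 : allRange (fun x => forceN T.chkName x) 27640 478 = true := by decide +kernel

end Cfsg.Agent.Lib.Helper56.Fi24U9
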