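import Mathlib
import Cfsg.Agent.Lib.Helper56.TC
import Cfsg.Agent.Lib.Helper56.Fi24U9.D
set_option autoImplicit false
set_option maxRecDepth 1000000

namespace Cfsg.Agent.Lib.Helper56.Fi24U9

open Cfsg.Agent.Lib.Helper56.TC Cfsg.Agent.Lib.Helper56.TC.Tabs

theorem cN_28118 : allRange (fun x => forceN T.chkName x) 28118 508 = true := by decide +kernel
theorem cN_28626 : allRange (fun x => forceN T.chkName x) 28626 584 = true := by decide +kernel
theorem cN_29210 : allRange (fun x => forceN T.chkName x) 29210 570 = true := by decide +kernel
theorem cN_29780 : allRange (fun x => forceN T.chkName x) 29780 574 = true := by decide +kernel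
theorem cN_30354 : allRange (fun x => forceN T.chkName x) 30354 576 = true := by decide +kernel
theorem cN_30930 : allRange (fun x => forceN T.chkName x) 30930 582 = true := by decide +kernel
theorem cN_31512 : allRange (fun x => forceN T.chkName x) 31512 574 = true := by decide +kernel
theorem cN_32086 : allRange (fun x => forceN T.chkName x) 32086 585 = true := by decide +kernel
theorem cN_32671 : allRange (fun x => forceN T.chkName x) 32671 576 = true := by decide +kernel
theorem cN_33247 : allRange (fun x => forceN T.chkName x) 33247 588 = true := by decide +kernel
theorem cN_33835 : allRange (fun x => forceN T.chkName x) 33835 585 = true := by decide +kernel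
theorem cN_34420 : allRange (fun x => forceN T.chkName x) 34420 587 = true := by decide +kernel

end Cfsg.Agent.Lib.Helper56.Fi24U9
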