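import Mathlib
import Cfsg.Agent.Lib.Helper56.TC
import Cfsg.Agent.Lib.Helper56.Fi24U9.D
set_option autoImplicit false
set_option maxRecDepth 1000000

namespace Cfsg.Agent.Lib.Helper56.Fi24U9

open Cfsg.Agent.Lib.Helper56.TC Cfsg.Agent.Lib.Helper56.TC.Tabs

theorem cN_35007 : allRange (fun x => forceN T.chkName x) 35007 609 = true := by decide +kernel
theorem cN_35616 : allRange (fun x => forceN T.chkName x) 35616 630 = true := by decide +kernel
theorem cN_36246 : allRange (fun x => forceN T.chkName x) 36246 324 = true := by decide +kernel
theorem cV_0 : allRange (fun x => forceN T.chkV x) 0 469 = true := by decide +kernel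
theorem cV_469 : allRange (fun x => forceN T.chkV x) 469 469 = true := by decide +kernel
theorem cV_938 : allRange (fun x => forceN T.chkV x) 938 469 = true := by decide +kernel
theorem cV_1407 : allRange (fun x => forceN T.chkV x) 1407 469 = true := by decide +kernel
theorem cV_1876 : allRange (fun x => forceN T.chkV x) 1876 469 = true := by decide +kernel
theorem cV_2345 : allRange (fun x => forceN T.chkV x) 2345 469 = true := by decide +kernel
theorem cV_2814 : allRange (fun x => forceN T.chkV x) 2814 469 = true := by decide +kernel
theorem cV_3283 : allRange (fun x => forceN T.chkV x) 3283 469 = true := by decide +kernel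
theorem cV_3752 : allRange (fun x => forceN T.chkV x) 3752 469 = true := by decide +kernel

end Cfsg.Agent.Lib.Helper56.Fi24U9
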