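import Mathlib
import Cfsg.Agent.Lib.Helper56.TC
import Cfsg.Agent.Lib.Helper56.Fi24U9.D
set_option autoImplicit false
set_option maxRecDepth 1000000

namespace Cfsg.Agent.Lib.Helper56.Fi24U9

open Cfsg.Agent.Lib.Helper56.TC Cfsg.Agent.Lib.Helper56.TC.Tabs

theorem cV_4221 : allRange (fun x => forceN T.chkV x) 4221 469 = true := by decide +kernel
theorem cV_4690 : allRange (fun x => forceN T.chkV x) 4690 469 = true := by decide +kernel
theorem cV_5159 : allRange (fun x => forceN T.chkV x) 5159 469 = true := by decide +kernel
theorem cV_5628 : allRange (fun x => forceN T.chkV x) 5628 469 = true := by decide +kernel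
theorem cV_6097 : allRange (fun x => forceN T.chkV x) 6097 469 = true := by decide +kernel
theorem cV_6566 : allRange (fun x => forceN T.chkV x) 6566 469 = true := by decide +kernel
theorem cV_7035 : allRange (fun x => forceN T.chkV x) 7035 469 = true := by decide +kernel
theorem cV_7504 : allRange (fun x => forceN T.chkV x) 7504 469 = true := by decide +kernel
theorem cV_7973 : allRange (fun x => forceN T.chkV x) 7973 469 = true := by decide +kernel
theorem cV_8442 : allRange (fun x => forceN T.chkV x) 8442 469 = true := by decide +kernel
theorem cV_8911 : allRange (fun x => forceN T.chkV x) 8911 469 = true := by decide +kernel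
theorem cV_9380 : allRange (fun x => forceN T.chkV x) 9380 469 = true := by decide +kernel

end Cfsg.Agent.Lib.Helper56.Fi24U9
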