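import Mathlib
import Cfsg.Agent.Lib.Helper56.TC
import Cfsg.Agent.Lib.Helper56.Fi24U9.D
set_option autoImplicit false
set_option maxRecDepth 1000000

namespace Cfsg.Agent.Lib.Helper56.Fi24U9

open Cfsg.Agent.Lib.Helper56.TC Cfsg.Agent.Lib.Helper56.TC.Tabs

theorem cV_9849 : allRange (fun x => forceN T.chkV x) 9849 469 = true := by decide +kernel
theorem cV_10318 : allRange (fun x => forceN T.chkV x) 10318 469 = true := by decide +kernel
theorem cV_10787 : allRange (fun x => forceN T.chkV x) 10787 469 = true := by decide +kernel
theorem cV_11256 : allRange (fun x => forceN T.chkV x) 11256 469 = true := by decide +kernel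
theorem cV_11725 : allRange (fun x => forceN T.chkV x) 11725 469 = true := by decide +kernel
theorem cV_12194 : allRange (fun x => forceN T.chkV x) 12194 469 = true := by decide +kernel
theorem cV_12663 : allRange (fun x => forceN T.chkV x) 12663 469 = true := by decide +kernel
theorem cV_13132 : allRange (fun x => forceN T.chkV x) 13132 469 = true := by decide +kernel
theorem cV_13601 : allRange (fun x => forceN T.chkV x) 13601 469 = true := by decide +kernel
theorem cV_14070 : allRange (fun x => forceN T.chkV x) 14070 469 = true := by decide +kernel
theorem cV_14539 : allRange (fun x => forceN T.chkV x) 14539 469 = true := by decide +kernel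
theorem cV_15008 : allRange (fun x => forceN T.chkV x) 15008 469 = true := by decide +kernel

end Cfsg.Agent.Lib.Helper56.Fi24U9
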