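import Mathlib
import Cfsg.Agent.Lib.Helper56.TC
import Cfsg.Agent.Lib.Helper56.Fi24U9.D
set_option autoImplicit false
set_option maxRecDepth 1000000

namespace Cfsg.Agent.Lib.Helper56.Fi24U9

open Cfsg.Agent.Lib.Helper56.TC Cfsg.Agent.Lib.Helper56.TC.Tabs

theorem cV_15477 : allRange (fun x => forceN T.chkV x) 15477 469 = true := by decide +kernel
theorem cV_15946 : allRange (fun x => forceN T.chkV x) 15946 469 = true := by decide +kernel
theorem cV_16415 : allRange (fun x => forceN T.chkV x) 16415 469 = true := by decide +kernel
theorem cV_16884 : allRange (fun x => forceN T.chkV x) 16884 469 = true := by decide +kernel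
theorem cV_17353 : allRange (fun x => forceN T.chkV x) 17353 469 = true := by decide +kernel
theorem cV_17822 : allRange (fun x => forceN T.chkV x) 17822 469 = true := by decide +kernel
theorem cV_18291 : allRange (fun x => forceN T.chkV x) 18291 469 = true := by decide +kernel
theorem cV_18760 : allRange (fun x => forceN T.chkV x) 18760 469 = true := by decide +kernel
theorem cV_19229 : allRange (fun x => forceN T.chkV x) 19229 469 = true := by decide +kernel
theorem cV_19698 : allRange (fun x => forceN T.chkV x) 19698 469 = true := by decide +kernel
theorem cV_20167 : allRange (fun x => forceN T.chkV x) 20167 469 = true := by decide +kernel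
theorem cV_20636 : allRange (fun x => forceN T.chkV x) 20636 469 = true := by decide +kernel

end Cfsg.Agent.Lib.Helper56.Fi24U9
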